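import Mathlib

/-!
Automorphisms of a finite simple group having a subgroup of prime index `p`: those fixing an
element of order `p` commute with each other (circulant matrices over `ZMod p`), so the outer
automorphism group is metabelian.
-/

set_option autoImplicit false

namespace CfsgLib.PrimeIndexOut

open Matrix Equiv Polynomial

variable {p : ℕ} [hp : Fact p.Prime]

lemma shift_pow (n : ℕ) :
    (circulant (Pi.single (1 : ZMod p) (1 : ZMod p))) ^ n
      = circulant (Pi.single (n : ZMod p) (1 : ZMod p)) := by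
  induction n with
  | zero => simp [circulant_single_one]
  | succ n ih =>
    rw [pow_succ, ih, circulant_mul]
    congr 1
    funext i
    simp [circulant_apply, Pi.single_apply, sub_eq_iff_eq_add]

/-- A circulant matrix over `ZMod p` is invertible when its entries have a nonzero sum. -/
lemma det_circulant_ne_zero (f : ZMod p → ZMod p) (hf : ∑ d, f d ≠ 0) :
    (circulant f).det ≠ 0 := by
  set S : Matrix (ZMod p) (ZMod p) (ZMod p) := circulant (Pi.single 1 1) with hS
  set F : (ZMod p)[X] := ∑ d : ZMod p, C (f d) * X ^ d.val with hF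
  have hM : aeval S F = circulant f := by
    simp only [hF, map_sum, map_mul, aeval_C, map_pow, aeval_X, hS, shift_pow,
      ZMod.natCast_val, ZMod.cast_id', id_eq]
    ext i j
    simp [Matrix.sum_apply, Algebra.algebraMap_eq_smul_one, circulant_apply, Pi.single_apply]
  have hSp : S ^ p = 1 := by
    rw [hS, shift_pow, ZMod.natCast_self, circulant_single_one]
  have h1 : (circulant f) ^ p = algebraMap (ZMod p) _ (∑ d, f d) := by
    rw [← hM, ← map_pow, ← ZMod.expand_card, expand_aeval, hSp]
    simp [hF, map_sum]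
  intro h
  have h2 := congrArg Matrix.det h1
  rw [det_pow, h, zero_pow hp.1.ne_zero, Matrix.algebraMap_eq_diagonal, det_diagonal] at h2
  exact hf (by simpa [hp.1.ne_zero] using h2.symm)

variable {G : Type*} [Group G]

/-- The key configuration: a circulant matrix intertwining `π` with `π ∘ α`. -/
lemma exists_intertwiner [Finite G] (π : G →* Perm (ZMod p)) (k : G)
    (hk : ∀ i, π k i = i + 1) (hp2 : ¬ p ^ 2 ∣ Nat.card G) (α : MulAut G) (hα : α k = k) :
    ∃ f : ZMod p → ZMod p, (circulant f).det ≠ 0 ∧
      ∀ g : G, (circulant f).submatrix (π (α g)) (π g) = circulant f := by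
  classical
  let O : ZMod p → ZMod p → Prop := fun a b => ∃ g, π g 0 = a ∧ π (α g) 0 = b
  have hinv : ∀ (h : G) (a b : ZMod p), O (π h a) (π (α h) b) ↔ O a b := by
    intro h a b
    constructor
    · rintro ⟨g, h1, h2⟩
      exact ⟨h⁻¹ * g, by simp [h1], by simp [h2]⟩
    · rintro ⟨g, h1, h2⟩
      exact ⟨h * g, by simp [h1], by simp [h2]⟩
  have hkn : ∀ (n : ℕ) (i : ZMod p), π (k ^ n) i = i + n := by
    intro n
    induction n with
    | zero => simp
    | succ n ih =>
      intro i
      rw [pow_succ', map_mul, Perm.mul_apply, ih, hk]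
      push_cast
      ring
  have htrans : ∀ i j : ZMod p, O j i ↔ O 0 (i - j) := by
    intro i j
    have h1 : π (k ^ j.val) 0 = j := by rw [hkn]; simp
    have h2 : π (α (k ^ j.val)) (i - j) = i := by rw [map_pow α, hα, hkn]; simp
    have h3 := hinv (k ^ j.val) 0 (i - j)
    rwa [h1, h2] at h3
  refine ⟨fun d => if O 0 d then 1 else 0, det_circulant_ne_zero _ ?_, ?_⟩
  · have hpos : 0 < (Finset.univ.filter fun d => O 0 d).card :=
      Finset.card_pos.2 ⟨0, by simpa using ⟨1, by simp, by simp⟩⟩
    have hlt : (Finset.univ.filter fun d => O 0 d).card < p := by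
      by_contra hge
      have hall : ∀ d, O 0 d := by
        have hu : (Finset.univ.filter fun d => O 0 d) = Finset.univ :=
          Finset.eq_univ_of_card _ (le_antisymm (Finset.card_le_univ _)
            (by rw [ZMod.card]; omega))
        simpa [Finset.filter_eq_self] using hu
      let Φ : G →* Perm (ZMod p × ZMod p) :=
        { toFun := fun g => Equiv.prodCongr (π g) (π (α g))
          map_one' := by ext x <;> simp
          map_mul' := fun g h => by ext x <;> simp }
      letI : MulAction G (ZMod p × ZMod p) := MulAction.compHom _ Φ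
      have hO : ∀ x : ZMod p × ZMod p, ∃ g : G, g • ((0, 0) : ZMod p × ZMod p) = x := by
        rintro ⟨a, b⟩
        obtain ⟨g, h1, h2⟩ := (htrans b a).2 (hall _)
        exact ⟨g, Prod.ext h1 h2⟩
      haveI : MulAction.IsPretransitive G (ZMod p × ZMod p) :=
        ⟨fun x y => by
          obtain ⟨g, rfl⟩ := hO x
          obtain ⟨h, rfl⟩ := hO y
          exact ⟨h * g⁻¹, by rw [mul_smul, inv_smul_smul]⟩⟩
      have h := MulAction.index_stabilizer_of_transitive G ((0, 0) : ZMod p × ZMod p)
      apply hp2
      calc p ^ 2 = (MulAction.stabilizer G ((0, 0) : ZMod p × ZMod p)).index := by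
            rw [h, Nat.card_prod, Nat.card_zmod, sq]
        _ ∣ Nat.card G := Subgroup.index_dvd_card _
    rw [Finset.sum_boole, Ne, ZMod.natCast_eq_zero_iff]
    exact Nat.not_dvd_of_pos_of_lt hpos hlt
  · intro g
    ext i j
    simp only [submatrix_apply, circulant_apply, ← htrans, hinv]

open scoped commutatorElement Pointwise

/-- Two automorphisms fixing the element inducing the translation commute. -/
lemma apply_comm_of_fix [Finite G] (π : G →* Perm (ZMod p)) (hinj : Function.Injective π) (k : G)
    (hk : ∀ i, π k i = i + 1) (hp2 : ¬ p ^ 2 ∣ Nat.card G) (α β : MulAut G)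
    (hα : α k = k) (hβ : β k = k) : α * β = β * α := by
  obtain ⟨a, hadet, ha⟩ := exists_intertwiner π k hk hp2 α hα
  obtain ⟨b, hbdet, hb⟩ := exists_intertwiner π k hk hp2 β hβ
  set U := circulant a * circulant b with hU
  have h1 : ∀ g, U.submatrix (π (α (β g))) (π g) = U := by
    intro g
    rw [hU, ← submatrix_mul_equiv _ _ _ (π (β g)) _, ha (β g), hb g]
  have h2 : ∀ g, U.submatrix (π (β (α g))) (π g) = U := by
    intro g
    rw [hU, Matrix.circulant_mul_comm, ← submatrix_mul_equiv _ _ _ (π (α g)) _, hb (α g), ha g]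
  refine MulEquiv.ext fun g => hinj (Equiv.ext fun i => ?_)
  simp only [MulAut.mul_apply]
  by_contra hne
  have hdet : U.det ≠ 0 := by
    rw [hU, det_mul]
    exact mul_ne_zero hadet hbdet
  refine hdet (det_zero_of_row_eq hne (funext fun l => ?_))
  obtain ⟨j, rfl⟩ := (π g).surjective l
  exact (congrFun (congrFun (h1 g) i) j).trans (congrFun (congrFun (h2 g) i) j).symm

/-- A faithful action on the cosets can be labelled so that an element of order `p` translates. -/
lemma exists_labelling [Finite G] (H : Subgroup G) (hH : H.index = p) (hcore : H.normalCore = ⊥) :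
    ∃ (π : G →* Perm (ZMod p)) (k : G), Function.Injective π ∧ orderOf k = p ∧
      (∀ i, π k i = i + 1) ∧ ¬ p ^ 2 ∣ Nat.card G := by
  classical
  let θ : G →* Perm (G ⧸ H) := MulAction.toPermHom G (G ⧸ H)
  have hθ : Function.Injective θ := by
    rw [← MonoidHom.ker_eq_bot_iff, ← hcore, Subgroup.normalCore_eq_ker]
  have hcard : Nat.card (G ⧸ H) = p := hH
  have hdvd : Nat.card G ∣ p.factorial := by
    have h := Subgroup.card_dvd_of_injective θ hθ
    rwa [Nat.card_perm, hcard] at h
  have hp2 : ¬ p ^ 2 ∣ Nat.card G := by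
    intro h
    have h' := h.trans hdvd
    rw [← Nat.mul_factorial_pred hp.1.ne_zero, sq,
      Nat.mul_dvd_mul_iff_left hp.1.pos, hp.1.dvd_factorial] at h'
    have := hp.1.two_le
    omega
  have hpG : p ∣ Nat.card G := hH ▸ H.index_dvd_card
  obtain ⟨k, hk⟩ := exists_prime_orderOf_dvd_card' p hpG
  have hk1 : θ k ≠ 1 := by
    intro h
    have := hθ (h.trans (map_one θ).symm)
    rw [this, orderOf_one] at hk
    exact hp.1.one_lt.ne hk
  obtain ⟨x₀, hx₀⟩ : ∃ x : G ⧸ H, k • x ≠ x := by
    by_contra h
    push Not at h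
    exact hk1 (Equiv.ext h)
  let kk : ZMod p → G := fun i => k ^ i.val
  have hadd : ∀ i j, kk (i + j) = kk i * kk j := fun i j => by
    simp only [kk, ← pow_add, ZMod.val_add]
    conv_rhs => rw [← pow_mod_orderOf, hk]
  have hmul : ∀ (n : ℕ) c, kk (n * c) = kk c ^ n := by
    intro n c
    induction n with
    | zero => simp [kk]
    | succ n ih => rw [pow_succ, ← ih, ← hadd]; congr 1; push_cast; ring
  have hone : kk 1 = k := by simp [kk, ZMod.val_one]
  have hinj : Function.Injective fun i => kk i • x₀ := by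
    intro a b hab
    by_contra hne
    apply hx₀
    have hc : a - b ≠ 0 := sub_ne_zero.2 hne
    have h0 : kk (a - b) • x₀ = x₀ := by
      have h : kk b • (kk (a - b) • x₀) = kk b • x₀ := by
        rw [← mul_smul, ← hadd, add_sub_cancel]
        exact hab
      exact smul_left_cancel _ h
    have hst : kk (a - b) ∈ MulAction.stabilizer G x₀ := h0
    have hpow := pow_mem hst ((a - b)⁻¹).val
    rw [← hmul, ZMod.natCast_val, ZMod.cast_id', id_eq, inv_mul_cancel₀ hc, hone] at hpow
    exact hpow
  have hbij : Function.Bijective fun i => kk i • x₀ :=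
    (Nat.bijective_iff_injective_and_card _).2 ⟨hinj, by rw [hcard, Nat.card_zmod]⟩
  let e : ZMod p ≃ G ⧸ H := Equiv.ofBijective _ hbij
  refine ⟨(Equiv.permCongrHom e.symm).toMonoidHom.comp θ, k,
    (Equiv.permCongrHom e.symm).injective.comp hθ, hk, fun i => ?_, hp2⟩
  change e.symm (k • e i) = i + 1
  rw [Equiv.symm_apply_eq]
  change k • (kk i • x₀) = kk (i + 1) • x₀
  rw [add_comm, hadd, hone, mul_smul]

/-- If `C` is abelian and contains the commutators of the group, the group is solvable. -/
lemma isSolvable_of_commutator {N : Type*} [Group N] (C : Subgroup N)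
    (h1 : ∀ a b : N, ⁅a, b⁆ ∈ C) (h2 : ∀ a ∈ C, ∀ b ∈ C, a * b = b * a) :
    Group.IsSolvable N := by
  have hle : derivedSeries N 1 ≤ C := by
    rw [derivedSeries_one, commutator_def, Subgroup.commutator_le]
    exact fun a _ b _ => h1 a b
  refine (Group.isSolvable_def N).2 ⟨2, ?_⟩
  rw [derivedSeries_succ, Subgroup.commutator_eq_bot_iff_le_centralizer]
  exact fun a ha b hb => h2 b (hle hb) a (hle ha)

/-- The quotient of the automorphism group by inner automorphisms is solvable. -/
theorem isSolvable_outer [Finite G] (H : Subgroup G) (hH : H.index = p)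
    (hcore : H.normalCore = ⊥) (I : Subgroup (MulAut G)) [I.Normal]
    (hI : ∀ g, MulAut.conj g ∈ I) : Group.IsSolvable (MulAut G ⧸ I) := by
  obtain ⟨π, k, hinj, hord, hk, hp2⟩ := exists_labelling H hH hcore
  let P := Subgroup.zpowers k
  have hPc : Nat.card P = p := (Nat.card_zpowers k).trans hord
  have hidx : ¬ p ∣ P.index := by
    rintro ⟨m, hm⟩
    exact hp2 ⟨m, by rw [← P.card_mul_index, hm, hPc]; ring⟩
  have hPp : IsPGroup p P := IsPGroup.of_card (n := 1) (by rw [hPc, pow_one])
  let S : Sylow p G := hPp.toSylow hidx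
  have hS : (S : Subgroup G) = P := rfl
  let N := MulAction.stabilizer (MulAut G) S
  have hpow : ∀ α ∈ N, ∃ a : ℤ, α k = k ^ a := by
    intro α hα
    have h : α k ∈ ((α • S : Sylow p G) : Subgroup G) :=
      Subgroup.smul_mem_pointwise_smul k α (S : Subgroup G) (Subgroup.mem_zpowers k)
    rw [show α • S = S from hα, hS] at h
    obtain ⟨a, ha⟩ := h
    exact ⟨a, ha.symm⟩
  have hswap : ∀ α ∈ N, ∀ β ∈ N, α (β k) = β (α k) := by
    intro α hα β hβ
    obtain ⟨a, ha⟩ := hpow α hα
    obtain ⟨b, hb⟩ := hpow β hβ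
    rw [hb, map_zpow, ha, map_zpow, hb, ← _root_.zpow_mul, ← _root_.zpow_mul, mul_comm]
  haveI : Group.IsSolvable N := by
    refine isSolvable_of_commutator
      ((MulAction.stabilizer (MulAut G) k).subgroupOf N) (fun a b => ?_) ?_
    · rw [Subgroup.mem_subgroupOf, MulAction.mem_stabilizer_iff]
      change ((a : MulAut G) * b * (a : MulAut G)⁻¹ * (b : MulAut G)⁻¹) k = k
      simp only [MulAut.mul_apply]
      rw [hswap _ (inv_mem a.2) _ (inv_mem b.2)]
      rw [MulAut.apply_inv_self, MulAut.apply_inv_self]
    · intro a ha b hb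
      exact Subtype.ext (apply_comm_of_fix π hinj k hk hp2 a b ha hb)
  refine Group.isSolvable_of_surjective (f := (QuotientGroup.mk' I).comp N.subtype) ?_
  intro x
  obtain ⟨α, rfl⟩ := QuotientGroup.mk'_surjective I x
  obtain ⟨g, hg⟩ := MulAction.exists_smul_eq G (α • S) S
  have hmem : MulAut.conj g * α ∈ N := by
    rw [MulAction.mem_stabilizer_iff, mul_smul]
    refine Eq.trans ?_ hg
    exact Sylow.ext rfl
  refine ⟨⟨_, hmem⟩, ?_⟩
  change (QuotientGroup.mk' I) (MulAut.conj g * α) = _
  rw [map_mul, (QuotientGroup.eq_one_iff _).2 (hI g) |> fun h =>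
    show QuotientGroup.mk' I (MulAut.conj g) = 1 from h, one_mul]

end CfsgLib.PrimeIndexOut
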